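import Cfsg.Agent.H6.Co3.D2.Main
import Cfsg.Agent.H6.Co3.DW.Main
import Cfsg.Agent.H6.Co3.G.Pres

set_option autoImplicit false
set_option maxRecDepth 100000
set_option Elab.async false

namespace Cfsg.H6.Co3.G

def RT : List (List ℕ) := [[32,15,32,17], [32,16,32,15], [32,17,32,15], [32,18,32,21], [32,19,32,20], [32,20,32,19], [32,21,32,18], [32,22,32,23], [32,23,32,22], [32,24,32,27], [32,25,32,26], [32,26,32,25], [32,27,32,24], [32,28,32,28], [32,29,32,29], [30,32,30,32,30,32], [7,3,5,1,7,5,9,7,32,7,3,5,1,7,5,9,7,32,7,3,5,1,7,5,9,7,32,7,3,5,1,7,5,9,7,32,7,3,5,1,7,5,9,7,32]]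

def RW : List (List ℕ) := [[32,15,32,17], [32,16,32,15], [32,17,32,15], [32,18,32,21], [32,19,32,20], [32,20,32,19], [32,21,32,18], [32,22,32,17,15,23], [32,23,32,17,15,22], [32,24,32,27], [32,25,32,26], [32,26,32,25], [32,27,32,24], [32,28,32,28], [32,29,32,29], [30,32,30,32,30,32], [7,3,5,1,7,5,9,7,32,7,3,5,1,7,5,9,7,32,7,3,5,1,7,5,9,7,32,7,3,5,1,7,5,9,7,32,7,3,5,1,7,5,9,7,32]]

theorem R_eq : R = P.R ++ RT := by decide +kernel

def sg : List (List ℕ) := [[], [1], [2], [3], [4], [5], [6], [7], [8], [9], [10], [11], [12], [13], [14], [15], [16], [17], [18], [19], [20], [21], [22], [23], [24], [25], [26], [27], [28], [29], [30], [31]]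

def sg2 : List (List ℕ) := sg ++ [[32], [32]]

theorem wrong {G : Type*} [Group G] {ev : ℕ → G} (hev : Good ev 3718971207344109804065969589026521216184392754226401235023396761360169781232128)
    (hR : Rels ev RW) {θ : P.Grp →* G} (hθ : ∀ l, 1 ≤ l → l < 32 → θ (P.ev l) = ev l) :
    ev 32 ∈ θ.range := by
  have hθ' : ∀ l, 1 ≤ l → l < 32 → θ (P.ev l) = evS ev sg2 l := fun l h1 h2 => by
    have : ∀ l < 32, 1 ≤ l → sg2.getD l [] = [l] := by decide +kernel
    rw [hθ l h1 h2, evS, this l h2 h1, evL_singleton]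
  have hyp : DW.D.Hyp (evS ev sg2) θ.range :=
    Dce.hyp_of hev hR (by decide +kernel) (Dce.chk_of hθ' P.ora)
      (Dce.ax_range (D := DW.D) hθ' (by decide +kernel))
  obtain ⟨i, hi, p, h⟩ := DW.hT (DW.model hθ') hyp 0 (by decide) 1
  have hi0 : i = 0 := by simpa [DW.E] using hi
  subst hi0
  have e0 : DW.D.gw 0 = [] := by decide +kernel
  have e1 : evS ev sg2 DW.D.T = ev 32 := evL_singleton ev 32
  rw [RC, e0, e1] at h
  simp only [evL_nil, one_mul, map_one] at h
  simpa using mul_mem h (⟨p, rfl⟩ : θ p ∈ θ.range)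

theorem lift1 : ∃ θ : P.Grp →* Grp, ∀ l, θ (P.ev l) = evS ev sg l :=
  P.lift (good_evS hev hR (by decide +kernel)) (rels_evS_cyc hev hR (by decide +kernel))

/-- The map from the model of the centraliser. -/
noncomputable def θ : P.Grp →* Grp := lift1.choose

theorem hθ : ∀ l, θ (P.ev l) = evS ev sg l := lift1.choose_spec

theorem hθ1 (l : ℕ) (h1 : 1 ≤ l) (h2 : l < 32) : θ (P.ev l) = ev l := by
  have : ∀ l < 32, 1 ≤ l → sg.getD l [] = [l] := by decide +kernel
  rw [hθ l, evS, this l h2 h1, evL_singleton]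

theorem hθ' : ∀ l, 1 ≤ l → l < 32 → θ (P.ev l) = evS ev sg2 l :=
  fun l _ h => by rw [hθ, sg2, evS_append ev sg _ h]

theorem hyp : D2.D.Hyp (evS ev sg2) θ.range :=
  Dce.hyp_of hev hR (by decide +kernel) (Dce.chk_of hθ' P.ora)
    (Dce.ax_range (D := D2.D) hθ' (by decide +kernel))

theorem hU : ∀ x, D2.D.InU (evS ev sg2) θ.range θ (D2.E.map Prod.fst) x :=
  Dce.all_inU ⟨0, by decide +kernel, by decide +kernel⟩ (D2.hT (D2.model hθ') hyp)
    (Dce.hinv (D2.model hθ') hyp (a := []) (b := []) (by decide +kernel))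
    (X := X) (by rw [gen_evS]; exact hX)
    (Dce.hgen (D2.model hθ') (by decide +kernel))

theorem cover : Cover θ.range ⊤ 170775 := Dce.cover D2.E (D2.hE (D2.model hθ') hyp) hU

theorem ubH : UB θ.range 2903040 := by
  have := P.finite
  exact UB.range θ P.card

theorem ub : UB (⊤ : Subgroup Grp) 495766656000 := ubH.cover cover

theorem finite : Finite Grp := ub.top.1

theorem coatom (h : Nat.card Grp = 495766656000) : IsCoatom θ.range := by
  have := finite
  exact Dce.isCoatom D2.E (D2.hE (D2.model hθ') hyp) hU (fun p => ⟨p, rfl⟩)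
    (exact_of_cover cover ubH h).1 (by norm_num) (by decide +kernel)

end Cfsg.H6.Co3.G
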